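-- GEN2 (S2405) package [G2]: the Chevalley group of type G2 over a finite field with more than
-- two elements is generated by two elements.
import Cfsg.Agent.Lib.Helper36.Gen2.Defs
import Cfsg.Agent.Lib.Helper36.StbB
import Cfsg.Agent.Lib.Helper18.ChevRefl

set_option autoImplicit false

namespace Cfsg.Agent.Lib.Helper29.Gen2

open Cfsg Cfsg.Lie Cfsg.Agent.Lib.Helper18 Cfsg.Agent.Lib.Helper17 Cfsg.Agent.Lib.Helper36

universe u

section gen

variable {F : Type u} [Field F] (D : ChevalleyDatum)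
  (hD : D ∈ [chevG2, chevB2, chevD4, chevF4, chevE6, chevE7, chevE8])

/-- root elements with no commutator terms commute -/
theorem xU_comm_of_terms (r s : ℕ) (hr : r < D.nroots) (hs : s < D.nroots) (hsr : s ≠ r)
    (hsn : s ≠ D.neg r) (hct : D.commTerms r s = []) (t u : F) :
    xU D hD s u * xU D hD r t = xU D hD r t * xU D hD s u := by
  have hcf := cf_of_mem (F := F) D hD r s hr hs hsr hsn t u
  have hw : D.wordMat F (D.commWord F r s t u) = 1 := by
    unfold ChevalleyDatum.commWord ChevalleyDatum.wordMat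
    rw [hct]
    simp
  rw [hw, mul_one] at hcf
  exact Units.ext (by simpa only [Units.val_mul, coe_xU] using hcf)

/-- a single-term commutator relation with invertible constant puts the target root group in `K` -/
theorem xU_mem_of_terms (K : Subgroup (GL D.Idx F)) (r s w : ℕ) (ε : ℤ) (hr : r < D.nroots)
    (hs : s < D.nroots) (hsr : s ≠ r) (hsn : s ≠ D.neg r)
    (hct : D.commTerms r s = [(w, ε, 1, 1)]) (hε : ((ε : ℤ) : F) ≠ 0)
    (hrK : ∀ t : F, xU D hD r t ∈ K) (hsK : ∀ t : F, xU D hD s t ∈ K) (c : F) :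
    xU D hD w c ∈ K := by
  have hcf := cf_of_mem (F := F) D hD r s hr hs hsr hsn 1 (-(c / (ε : F)))
  have hw : D.wordMat F (D.commWord F r s 1 (-(c / (ε : F)))) = D.x F w c := by
    unfold ChevalleyDatum.commWord ChevalleyDatum.wordMat
    rw [hct]
    simp only [List.map_cons, List.map_nil, List.prod_cons, List.prod_nil, mul_one, pow_one]
    congr 1
    field_simp
  rw [hw] at hcf
  have hU : xU D hD s (-(c / (ε : F))) * xU D hD r 1 =
      xU D hD r 1 * xU D hD s (-(c / (ε : F))) * xU D hD w c :=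
    Units.ext (by simpa only [Units.val_mul, coe_xU] using hcf)
  have h2 : xU D hD w c = (xU D hD s (-(c / (ε : F))))⁻¹ * (xU D hD r 1)⁻¹ *
      (xU D hD s (-(c / (ε : F))) * xU D hD r 1) := by
    rw [hU]
    group
  rw [h2]
  exact K.mul_mem (K.mul_mem (K.inv_mem (hsK _)) (K.inv_mem (hrK _))) (K.mul_mem (hsK _) (hrK _))

/-- the torus element `h_{p_i}(a)` as an element of the general linear group -/
noncomputable def hU (i : ℕ) (a : F) : GL D.Idx F := wordU D hD (D.hWord (D.simple i) a)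

theorem coe_hU (i : ℕ) (a : F) :
    ((hU D hD i a : GL D.Idx F) : Matrix D.Idx D.Idx F) = D.hMat F (D.simple i) a := by
  unfold hU
  rw [coe_wordU]
  rfl

theorem hU_mem_group (i : ℕ) (a : F) : hU D hD i a ∈ D.group F := wordU_mem_group D hD _

theorem hU_mul_xU (i s : ℕ) (hi : i < D.rank) (hs : s < D.nroots) (a : F) (ha : a ≠ 0) (t : F) :
    hU D hD i a * xU D hD s t = xU D hD s (a ^ (D.cartan i s) * t) * hU D hD i a :=
  Units.ext (by
    simp only [Units.val_mul, coe_xU, coe_hU]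
    exact Cfsg.Agent.S1032.result D hD i s hi hs a ha t)

theorem hU_pow (i : ℕ) (hi : i < D.rank) (a : F) (ha : a ≠ 0) (n : ℕ) :
    hU D hD i a ^ n = hU D hD i (a ^ n) := by
  have hlt := simple_lt D hD i hi
  induction n with
  | zero =>
    rw [pow_zero, pow_zero]
    exact Units.ext (by rw [coe_hU, Units.val_one, hMat_one D hD _ hlt])
  | succ n ih =>
    rw [pow_succ, ih]
    exact Units.ext (by
      rw [Units.val_mul, coe_hU, coe_hU, coe_hU, hMat_mul D hD _ hlt _ _ (pow_ne_zero n ha) ha,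
        pow_succ])

theorem hU_comm (i j : ℕ) (hi : i < D.rank) (hj : j < D.rank) (a b : F) (ha : a ≠ 0)
    (hb : b ≠ 0) : hU D hD i a * hU D hD j b = hU D hD j b * hU D hD i a :=
  Units.ext (by
    rw [Units.val_mul, Units.val_mul, coe_hU, coe_hU,
      hMat_diag D hD _ (simple_lt D hD i hi) a ha, hMat_diag D hD _ (simple_lt D hD j hj) b hb,
      Matrix.diagonal_mul_diagonal, Matrix.diagonal_mul_diagonal]
    congr 1
    funext idx
    rw [mul_comm])

theorem xU_zero (r : ℕ) : xU D hD r (0 : F) = 1 :=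
  Units.ext (by rw [coe_xU, Units.val_one, Cfsg.Agent.S1024.x_zero])

theorem xU_pow (r : ℕ) (hr : r < D.nroots) (t : F) (n : ℕ) :
    xU D hD r t ^ n = xU D hD r ((n : F) * t) := by
  induction n with
  | zero => rw [pow_zero, Nat.cast_zero, zero_mul, xU_zero]
  | succ n ih =>
    rw [pow_succ, ih, xU_mul_xU D hD r hr]
    congr 1
    push_cast
    ring

/-- the letters of the word `h_r(t)` are `r` and `-r` -/
theorem hWord_fst (r : ℕ) (t : F) (p : ℕ × F) (hp : p ∈ D.hWord r t) :
    p.1 = r ∨ p.1 = D.neg r := by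
  simp only [ChevalleyDatum.hWord, ChevalleyDatum.nWord, List.mem_append, List.mem_cons,
    List.not_mem_nil, or_false] at hp
  rcases hp with (h | h | h) | h | h | h <;> simp [h]

/-- the torus element lies in a subgroup containing the two root groups it is built from -/
theorem hU_mem_of (K : Subgroup (GL D.Idx F)) (i : ℕ) (a : F)
    (h1 : ∀ t : F, xU D hD (D.simple i) t ∈ K) (h2 : ∀ t : F, xU D hD (D.neg (D.simple i)) t ∈ K) :
    hU D hD i a ∈ K := by
  unfold hU wordU
  apply Subgroup.list_prod_mem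
  intro x hx
  rw [List.mem_map] at hx
  obtain ⟨p, hp, rfl⟩ := hx
  rcases hWord_fst D _ _ p hp with h | h
  · rw [h]; exact h1 _
  · rw [h]; exact h2 _

/-- conjugation by `n_l` moves root elements of `K` to root elements of `K` -/
theorem xU_mem_of_nW (K : Subgroup (GL D.Idx F)) (l : List (Fin D.rank))
    (hb : nW (F := F) D hD l ∈ K) (r : ℕ) (hr : r < D.nroots) (t : F)
    (h : xU D hD r t ∈ K) : xU D hD (wordF D l r) t ∈ K := by
  obtain ⟨ε, hε⟩ := word_smap (F := F) D hD l
  have e1 := hε.conjU hD r hr t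
  have e2 : xU D hD (wordF D l r) (ε r * t) = nW D hD l * xU D hD r t * (nW D hD l)⁻¹ := by
    show _ = (l.map (nU (F := F) D hD)).prod * xU D hD r t * ((l.map (nU (F := F) D hD)).prod)⁻¹
    rw [e1]
    group
  have h2 : xU D hD (wordF D l r) (ε r * t) ∈ K := by
    rw [e2]
    exact K.mul_mem (K.mul_mem hb h) (K.inv_mem hb)
  rcases hε.sign r hr with h1 | h1
  · rwa [h1, one_mul] at h2
  · rw [h1] at h2
    have h3 := K.inv_mem h2
    rw [Cfsg.Agent.Lib.Helper17.xU_inv] at h3
    simpa using h3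

/-- a root group meets `K` in everything once it contains a non-zero element and is stable under
multiplication of the parameter by a generator of the multiplicative group -/
theorem xU_spread (K : Subgroup (GL D.Idx F)) (r : ℕ) (ζ v : F)
    (hpow : ∀ y : F, y ≠ 0 → ∃ n : ℕ, ζ ^ n = y) (hv : v ≠ 0) (hvK : xU D hD r v ∈ K)
    (hstep : ∀ t : F, xU D hD r t ∈ K → xU D hD r (ζ * t) ∈ K) (t : F) : xU D hD r t ∈ K := by
  have hall : ∀ n : ℕ, xU D hD r (ζ ^ n * v) ∈ K := by
    intro n
    induction n with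
    | zero => rwa [pow_zero, one_mul]
    | succ n ih =>
      have := hstep _ ih
      rwa [← mul_assoc, ← pow_succ'] at this
  by_cases ht : t = 0
  · rw [ht, xU_zero]; exact K.one_mem
  · obtain ⟨n, hn⟩ := hpow (t / v) (div_ne_zero ht hv)
    have := hall n
    rwa [hn, div_mul_cancel₀ t hv] at this

end gen

/-- the Coxeter word of `G₂` -/
def cox : List (Fin chevG2.rank) := [⟨0, by decide⟩, ⟨1, by decide⟩]

theorem g2_mem : chevG2 ∈ [chevG2, chevB2, chevD4, chevF4, chevE6, chevE7, chevE8] := by simp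

/-- **[G2]** -/
theorem pkgG2 : Cfsg.Agent.Lib.Helper36.Gen2.PkgG2.{u} := by
  intro F _ _ hF
  classical
  have hD := g2_mem
  have : Fintype F := Fintype.ofFinite F
  obtain ⟨g, hg⟩ := IsCyclic.exists_generator (α := Fˣ)
  have hpow : ∀ y : F, y ≠ 0 → ∃ n : ℕ, (g : F) ^ n = y := by
    intro y hy
    have h1 : Units.mk0 y hy ∈ Submonoid.powers g := by
      rw [mem_powers_iff_mem_zpowers]
      exact hg _
    obtain ⟨n, hn⟩ := h1
    refine ⟨n, ?_⟩
    have := congrArg (fun z : Fˣ => (z : F)) hn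
    simpa using this
  obtain ⟨ζ, hζ⟩ : ∃ ζ : F, ζ = (g : F) := ⟨_, rfl⟩
  rw [← hζ] at hpow
  have hζ0 : ζ ≠ 0 := by rw [hζ]; exact g.ne_zero
  have hζ1 : ζ ≠ 1 := by
    intro h1
    obtain ⟨x, hx0, hx1⟩ := hF
    obtain ⟨n, hn⟩ := hpow x hx0
    rw [h1, one_pow] at hn
    exact hx1 hn.symm
  have hq1 : ζ ^ (Fintype.card F - 1) = 1 := FiniteField.pow_card_sub_one_eq_one _ hζ0
  have hq2 : ((Fintype.card F - 1 : ℕ) : F) = -1 := by
    rw [Nat.cast_sub (Fintype.card_pos (α := F)), FiniteField.cast_card_eq_zero]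
    simp
  -- the elements
  obtain ⟨h, hh⟩ : ∃ h : GL chevG2.Idx F, h = hU chevG2 hD 1 ζ := ⟨_, rfl⟩
  obtain ⟨h0, hh0⟩ : ∃ h0 : GL chevG2.Idx F, h0 = hU chevG2 hD 0 ζ := ⟨_, rfl⟩
  have f1 : ∀ t : F, h * xU chevG2 hD 9 t = xU chevG2 hD 9 t * h := by
    intro t
    have := hU_mul_xU chevG2 hD 1 9 (by decide) (by decide) ζ hζ0 t
    rw [show chevG2.cartan 1 9 = 0 from by decide, zpow_zero, one_mul] at this
    rw [hh]; exact this
  have f2 : ∀ t : F, h * xU chevG2 hD 10 t = xU chevG2 hD 10 (ζ⁻¹ * t) * h := by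
    intro t
    have := hU_mul_xU chevG2 hD 1 10 (by decide) (by decide) ζ hζ0 t
    rw [show chevG2.cartan 1 10 = -1 from by decide, zpow_neg_one] at this
    rw [hh]; exact this
  have f5 : ∀ t : F, h * xU chevG2 hD 8 t = xU chevG2 hD 8 (ζ * t) * h := by
    intro t
    have := hU_mul_xU chevG2 hD 1 8 (by decide) (by decide) ζ hζ0 t
    rw [show chevG2.cartan 1 8 = 1 from by decide, zpow_one] at this
    rw [hh]; exact this
  have f6 : ∀ t : F, h0 * xU chevG2 hD 10 t = xU chevG2 hD 10 (ζ ^ 3 * t) * h0 := by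
    intro t
    have := hU_mul_xU chevG2 hD 0 10 (by decide) (by decide) ζ hζ0 t
    rw [show chevG2.cartan 0 10 = 3 from by decide] at this
    rw [hh0]
    have e : ζ ^ (3 : ℤ) = ζ ^ 3 := by norm_cast
    rw [e] at this
    exact this
  have f7 : h0 * h = h * h0 := by
    rw [hh, hh0]
    exact hU_comm chevG2 hD 0 1 (by decide) (by decide) ζ ζ hζ0 hζ0
  have f3 : ∀ t u : F, xU chevG2 hD 10 u * xU chevG2 hD 9 t =
      xU chevG2 hD 9 t * xU chevG2 hD 10 u :=
    xU_comm_of_terms chevG2 hD 9 10 (by decide) (by decide) (by decide) (by decide) (by decide)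
  have f4 : ∀ t u : F, xU chevG2 hD 10 u * xU chevG2 hD 8 t =
      xU chevG2 hD 8 t * xU chevG2 hD 10 u :=
    xU_comm_of_terms chevG2 hD 8 10 (by decide) (by decide) (by decide) (by decide) (by decide)
  have hadd : ∀ (r : ℕ) (_ : r < chevG2.nroots) (t u : F),
      xU chevG2 hD r t * xU chevG2 hD r u = xU chevG2 hD r (t + u) :=
    fun r hr t u => xU_mul_xU chevG2 hD r hr t u
  obtain ⟨c, hc⟩ : ∃ c : GL chevG2.Idx F, c = h * xU chevG2 hD 10 1 := ⟨_, rfl⟩
  obtain ⟨a, ha⟩ : ∃ a : GL chevG2.Idx F, a = h * xU chevG2 hD 9 1 * xU chevG2 hD 10 1 :=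
    ⟨_, rfl⟩
  obtain ⟨b, hb⟩ : ∃ b : GL chevG2.Idx F, b = nW chevG2 hD cox := ⟨_, rfl⟩
  refine ⟨a, b, ?_, ?_, ?_⟩
  · rw [ha, hh]
    exact Subgroup.mul_mem _ (Subgroup.mul_mem _ (hU_mem_group chevG2 hD 1 ζ)
      (xU_mem_group chevG2 hD 9 1)) (xU_mem_group chevG2 hD 10 1)
  · rw [hb]
    exact nW_mem_group chevG2 hD cox
  obtain ⟨K, hK⟩ : ∃ K : Subgroup (GL chevG2.Idx F),
      K = Subgroup.closure ({a, b} : Set (GL chevG2.Idx F)) := ⟨_, rfl⟩
  rw [← hK]
  have haK : a ∈ K := by rw [hK]; exact Subgroup.subset_closure (by simp)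
  have hbK : nW chevG2 hD cox ∈ K := by
    rw [hK, ← hb]; exact Subgroup.subset_closure (by simp)
  -- step 1: `x_9(1) ∈ K` and `c ∈ K`
  have hac : a = c * xU chevG2 hD 9 1 := by
    rw [ha, hc, mul_assoc, mul_assoc, f3]
  have hcomm : Commute c (xU chevG2 hD 9 1) := by
    show c * xU chevG2 hD 9 1 = xU chevG2 hD 9 1 * c
    rw [hc, mul_assoc, f3, ← mul_assoc, f1, mul_assoc]
  have hcpow : c ^ (Fintype.card F - 1) = 1 := by
    have e : c = xU chevG2 hD 10 (1 / (ζ - 1)) * h * (xU chevG2 hD 10 (1 / (ζ - 1)))⁻¹ := by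
      rw [Cfsg.Agent.Lib.Helper17.xU_inv, mul_assoc, f2, ← mul_assoc, hadd 10 (by decide), hc, f2]
      congr 2
      have : ζ - 1 ≠ 0 := sub_ne_zero.mpr hζ1
      field_simp
      ring
    rw [e, conj_pow, hh, hU_pow chevG2 hD 1 (by decide) ζ hζ0, hq1]
    have e1 : hU chevG2 hD 1 (1 : F) = 1 := by
      have := hU_pow chevG2 hD 1 (by decide) ζ hζ0 0
      rw [pow_zero, pow_zero] at this
      exact this.symm
    rw [e1]
    group
  have hx9 : xU chevG2 hD 9 (1 : F) ∈ K := by
    have h1 : a ^ (Fintype.card F - 1) ∈ K := K.pow_mem haK _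
    rw [hac, hcomm.mul_pow, hcpow, one_mul, xU_pow chevG2 hD 9 (by decide), hq2] at h1
    have h2 := K.inv_mem h1
    rw [Cfsg.Agent.Lib.Helper17.xU_inv] at h2
    simpa using h2
  have hcK : c ∈ K := by
    have : c = a * (xU chevG2 hD 9 1)⁻¹ := by rw [hac]; group
    rw [this]
    exact K.mul_mem haK (K.inv_mem hx9)
  -- step 2: the short root groups
  have hx8 : xU chevG2 hD 8 (1 : F) ∈ K := by
    have := xU_mem_of_nW chevG2 hD K cox hbK 9 (by decide) 1 hx9
    rwa [show wordF chevG2 cox 9 = 8 from by decide] at this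
  have H8 : ∀ t : F, xU chevG2 hD 8 t ∈ K := by
    refine xU_spread chevG2 hD K 8 ζ 1 hpow one_ne_zero hx8 ?_
    intro t ht
    have e : xU chevG2 hD 8 (ζ * t) = c * xU chevG2 hD 8 t * c⁻¹ := by
      have : c * xU chevG2 hD 8 t = xU chevG2 hD 8 (ζ * t) * c := by
        rw [hc, mul_assoc, f4, ← mul_assoc, f5, mul_assoc]
      rw [this]
      group
    rw [e]
    exact K.mul_mem (K.mul_mem hcK ht) (K.inv_mem hcK)
  have H4 : ∀ t : F, xU chevG2 hD 4 t ∈ K := by
    intro t
    have := xU_mem_of_nW chevG2 hD K cox hbK 8 (by decide) t (H8 t)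
    rwa [show wordF chevG2 cox 8 = 4 from by decide] at this
  have H2 : ∀ t : F, xU chevG2 hD 2 t ∈ K := by
    intro t
    have := xU_mem_of_nW chevG2 hD K cox hbK 4 (by decide) t (H4 t)
    rwa [show wordF chevG2 cox 4 = 2 from by decide] at this
  have H3 : ∀ t : F, xU chevG2 hD 3 t ∈ K := by
    intro t
    have := xU_mem_of_nW chevG2 hD K cox hbK 2 (by decide) t (H2 t)
    rwa [show wordF chevG2 cox 2 = 3 from by decide] at this
  have H7 : ∀ t : F, xU chevG2 hD 7 t ∈ K := by
    intro t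
    have := xU_mem_of_nW chevG2 hD K cox hbK 3 (by decide) t (H3 t)
    rwa [show wordF chevG2 cox 3 = 7 from by decide] at this
  have H9 : ∀ t : F, xU chevG2 hD 9 t ∈ K := by
    intro t
    have := xU_mem_of_nW chevG2 hD K cox hbK 7 (by decide) t (H7 t)
    rwa [show wordF chevG2 cox 7 = 9 from by decide] at this
  -- step 3: the long root group `X_10`
  have H10 : ∀ t : F, xU chevG2 hD 10 t ∈ K := by
    by_cases h3 : (3 : F) = 0
    · -- characteristic 3: the torus element `h0` of the short root subgroup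
      have hh0K : h0 ∈ K := by
        rw [hh0]
        refine hU_mem_of chevG2 hD K 0 ζ ?_ ?_
        · rw [show chevG2.simple 0 = 7 from by decide]; exact H7
        · rw [show chevG2.neg (chevG2.simple 0) = 4 from by decide]; exact H4
      have hv : ζ ^ 3 - 1 ≠ 0 := by
        have e : ζ ^ 3 - 1 = (ζ - 1) ^ 3 + 3 * (ζ ^ 2 - ζ) := by ring
        rw [e, h3, zero_mul, add_zero]
        exact pow_ne_zero 3 (sub_ne_zero.mpr hζ1)
      have hvK : xU chevG2 hD 10 (ζ ^ 3 - 1) ∈ K := by
        have e1 : h0 * c = h * xU chevG2 hD 10 (ζ ^ 3) * h0 := by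
          rw [hc, ← mul_assoc, f7, mul_assoc, f6, mul_one, mul_assoc]
        have e2 : xU chevG2 hD 10 (ζ ^ 3 - 1) = c⁻¹ * (h0 * c * h0⁻¹) := by
          rw [e1, hc]
          have e3 : (h * xU chevG2 hD 10 1)⁻¹ * (h * xU chevG2 hD 10 (ζ ^ 3) * h0 * h0⁻¹) =
              (xU chevG2 hD 10 1)⁻¹ * xU chevG2 hD 10 (ζ ^ 3) := by group
          rw [e3, Cfsg.Agent.Lib.Helper17.xU_inv, hadd 10 (by decide)]
          congr 1
          ring
        rw [e2]
        exact K.mul_mem (K.inv_mem hcK) (K.mul_mem (K.mul_mem hh0K hcK) (K.inv_mem hh0K))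
      refine xU_spread chevG2 hD K 10 ζ (ζ ^ 3 - 1) hpow hv hvK ?_
      intro t ht
      have e : xU chevG2 hD 10 (ζ * t) = c⁻¹ * xU chevG2 hD 10 t * c := by
        have : c * xU chevG2 hD 10 (ζ * t) = xU chevG2 hD 10 t * c := by
          rw [hc, mul_assoc, hadd 10 (by decide), add_comm, ← hadd 10 (by decide), ← mul_assoc,
            f2, mul_assoc]
          congr 2
          field_simp
        have e' : xU chevG2 hD 10 (ζ * t) = c⁻¹ * (c * xU chevG2 hD 10 (ζ * t)) := by group
        rw [e', this]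
        group
      rw [e]
      exact K.mul_mem (K.mul_mem (K.inv_mem hcK) ht) hcK
    · -- characteristic not 3: a commutator of short root elements
      exact xU_mem_of_terms chevG2 hD K 9 7 10 (-3) (by decide) (by decide) (by decide)
        (by decide) (by decide) (by push_cast; exact neg_ne_zero.mpr h3) H9 H7
  have H11 : ∀ t : F, xU chevG2 hD 11 t ∈ K := by
    intro t
    have := xU_mem_of_nW chevG2 hD K cox hbK 10 (by decide) t (H10 t)
    rwa [show wordF chevG2 cox 10 = 11 from by decide] at this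
  have H6 : ∀ t : F, xU chevG2 hD 6 t ∈ K := by
    intro t
    have := xU_mem_of_nW chevG2 hD K cox hbK 11 (by decide) t (H11 t)
    rwa [show wordF chevG2 cox 11 = 6 from by decide] at this
  have H1 : ∀ t : F, xU chevG2 hD 1 t ∈ K := by
    intro t
    have := xU_mem_of_nW chevG2 hD K cox hbK 6 (by decide) t (H6 t)
    rwa [show wordF chevG2 cox 6 = 1 from by decide] at this
  have H0 : ∀ t : F, xU chevG2 hD 0 t ∈ K := by
    intro t
    have := xU_mem_of_nW chevG2 hD K cox hbK 1 (by decide) t (H1 t)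
    rwa [show wordF chevG2 cox 1 = 0 from by decide] at this
  have H5 : ∀ t : F, xU chevG2 hD 5 t ∈ K := by
    intro t
    have := xU_mem_of_nW chevG2 hD K cox hbK 0 (by decide) t (H0 t)
    rwa [show wordF chevG2 cox 0 = 5 from by decide] at this
  -- step 4: all root elements are in `K`
  unfold ChevalleyDatum.group
  rw [Subgroup.closure_le]
  rintro x ⟨r, t, hx⟩
  have hxe : x = xU chevG2 hD r.1 t := Units.ext (by
    rw [hx, coe_xU]; simp [ChevalleyDatum.x, r.2])
  rw [hxe]
  obtain ⟨r, hr⟩ := r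
  have hr' : r < 12 := hr
  show xU chevG2 hD r t ∈ K
  interval_cases r
  · exact H0 t
  · exact H1 t
  · exact H2 t
  · exact H3 t
  · exact H4 t
  · exact H5 t
  · exact H6 t
  · exact H7 t
  · exact H8 t
  · exact H9 t
  · exact H10 t
  · exact H11 t

end Cfsg.Agent.Lib.Helper29.Gen2
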